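import Mathlib
import Cfsg.Agent.Lib.Helper23.OHyp.Defs
import Cfsg.Agent.Lib.Helper23.OHyp.CntDefs

/-!
# OHYP project (S5992): package [CNTCAUCHY]
-/

set_option autoImplicit false
open scoped MatrixGroups
open Matrix

namespace Cfsg.Agent.Lib.Helper62.OHyp

open Cfsg.Agent.Lib.Helper23.OHyp

universe u

/-- [CNTCAUCHY] the pointwise stabilizer of `movSp x` has no element of order `r` when
`dim fixSp x < c`. -/
theorem pkgCntCauchy_of (hSplit : PkgSplit.{u}) (hDiv : PkgDiv.{u}) : PkgCntCauchy.{u} := by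
  intro F _ _ ι _ _ Q r x hstd hlt g hg hgm hgr
  have hgiso : ∀ v, Q ((g : Matrix ι ι F) *ᵥ v) = Q v := fun v => hg v v
  have hstdg : Std Q r (g : Matrix ι ι F) :=
    { nondeg := hstd.nondeg
      two := hstd.two
      prime := hstd.prime
      ne_two := hstd.ne_two
      ndvd := hstd.ndvd
      ne := hstd.ne
      pow := by
        have := congrArg (fun z : GL ι F => (z : Matrix ι ι F)) hgr
        simpa using this
      isom := hgiso }
  obtain ⟨-, hNdmx, hPerpx, hComplx, -, -⟩ := hSplit F ι Q r x hstd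
  obtain ⟨-, hNdmg, -, -, hInvmg, -⟩ := hSplit F ι Q r (g : Matrix ι ι F) hstdg
  have hB := hstd.nondeg.polar_bilinear
  -- an isometry preserves the polar form
  have hpol : ∀ a b : ι → F, QuadraticMap.polar Q ((g : Matrix ι ι F) *ᵥ a)
      ((g : Matrix ι ι F) *ᵥ b) = QuadraticMap.polar Q a b := by
    intro a b
    unfold QuadraticMap.polar
    rw [← Matrix.mulVec_add, hgiso, hgiso, hgiso]
  -- movSp g ⊥ movSp x
  have hperp : ∀ w ∈ movSp (g : Matrix ι ι F), ∀ t ∈ movSp x, QuadraticMap.polar Q w t = 0 := by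
    intro w hw t ht
    obtain ⟨v, rfl⟩ := hw
    have e1 : (Matrix.toLin' (g : Matrix ι ι F) - 1) v = (g : Matrix ι ι F) *ᵥ v - v := by
      rw [LinearMap.sub_apply, Matrix.toLin'_apply, Module.End.one_apply]
    rw [e1]
    have e2 : QuadraticMap.polar Q ((g : Matrix ι ι F) *ᵥ v - v) t =
        QuadraticMap.polar Q ((g : Matrix ι ι F) *ᵥ v) t - QuadraticMap.polar Q v t := by
      have := hB.add_left ((g : Matrix ι ι F) *ᵥ v - v) v t
      rw [sub_add_cancel] at this
      rw [this]; ring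
    rw [e2]
    nth_rewrite 1 [← hgm t ht]
    rw [hpol, sub_self]
  -- movSp g ≤ fixSp x
  have hle : movSp (g : Matrix ι ι F) ≤ fixSp x := by
    intro w hw
    have hw' : w ∈ fixSp x ⊔ movSp x := by rw [hComplx.sup_eq_top]; trivial
    obtain ⟨f, hf, m, hm, hfm⟩ := Submodule.mem_sup.mp hw'
    have hm0 : m = 0 := by
      by_contra hne
      obtain ⟨-, ⟨t, ht, htne⟩⟩ := hNdmx m hm hne
      apply htne
      have e1 : QuadraticMap.polar Q w t = QuadraticMap.polar Q f t + QuadraticMap.polar Q m t := by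
        rw [← hfm]; exact hB.add_left f m t
      rw [hperp w hw t ht, hPerpx f hf t ht, zero_add] at e1
      exact e1.symm
    rw [hm0, add_zero] at hfm
    rw [← hfm]; exact hf
  -- dimension count
  have hfr : Module.finrank F (movSp (g : Matrix ι ι F)) < cc (Fintype.card F) r :=
    lt_of_le_of_lt (Submodule.finrank_mono hle) hlt
  have hdvd := (hDiv F ι Q r (g : Matrix ι ι F) hstdg (movSp (g : Matrix ι ι F)) le_rfl hInvmg
    hNdmg).1
  have h0 : Module.finrank F (movSp (g : Matrix ι ι F)) = 0 := Nat.eq_zero_of_dvd_of_lt hdvd hfr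
  have hbot : movSp (g : Matrix ι ι F) = ⊥ := Submodule.finrank_eq_zero.mp h0
  have hz : Matrix.toLin' (g : Matrix ι ι F) - 1 = 0 := LinearMap.range_eq_bot.mp hbot
  have h1 : Matrix.toLin' (g : Matrix ι ι F) = Matrix.toLin' (1 : Matrix ι ι F) := by
    rw [Matrix.toLin'_one]
    exact sub_eq_zero.mp hz
  apply Units.ext
  exact Matrix.toLin'.injective h1

end Cfsg.Agent.Lib.Helper62.OHyp
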